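import Mathlib
import Cfsg.Agent.Lib.Helper59.OHyp.BlkDefs

/-!
# Project OHYP (S5992), BLK cut, package [ANN]

An invariant subspace is killed by a nonzero polynomial of degree at most its dimension
(characteristic polynomial of the restriction and Cayley-Hamilton).
-/

set_option autoImplicit false

namespace Cfsg.Agent.Lib.Helper25.OHyp

open Cfsg.Agent.Lib.Helper23.OHyp Cfsg.Agent.Lib.Helper59.OHyp
open scoped Matrix

universe u

theorem pkgAnn : PkgAnn.{u} := by
  intro F _ ι _ _ x U hU
  have hU' : ∀ v ∈ U, Matrix.toLin' x v ∈ U := fun v hv => hU ⟨v, hv, rfl⟩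
  set f : U →ₗ[F] U := (Matrix.toLin' x).restrict hU' with hf
  have hfv : ∀ w : U, ((f w : U) : ι → F) = x *ᵥ (w : ι → F) := by
    intro w
    rw [hf, LinearMap.coe_restrict_apply, Matrix.toLin'_apply]
  have hpow : ∀ (n : ℕ) (v : U), (x ^ n) *ᵥ (v : ι → F) = (((f ^ n) v : U) : ι → F) := by
    intro n
    induction n with
    | zero => intro v; simp
    | succ n ih =>
      intro v
      rw [pow_succ' x n, ← Matrix.mulVec_mulVec, ih, ← hfv, pow_succ' f n, Module.End.mul_apply]
  have hpoly : ∀ (p : Polynomial F) (v : U),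
      (Polynomial.aeval x p) *ᵥ (v : ι → F) = (((Polynomial.aeval f p) v : U) : ι → F) := by
    intro p
    induction p using Polynomial.induction_on' with
    | add p q hp hq =>
      intro v
      rw [map_add, map_add, Matrix.add_mulVec, hp, hq, LinearMap.add_apply, Submodule.coe_add]
    | monomial n c =>
      intro v
      rw [Polynomial.aeval_monomial, Polynomial.aeval_monomial, ← Algebra.smul_def,
        ← Algebra.smul_def, Matrix.smul_mulVec, hpow, LinearMap.smul_apply, Submodule.coe_smul]
  refine ⟨f.charpoly, (LinearMap.charpoly_monic f).ne_zero, ?_, ?_⟩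
  · rw [LinearMap.charpoly_natDegree]
  · intro v hv
    have h1 := hpoly f.charpoly ⟨v, hv⟩
    rw [LinearMap.aeval_self_charpoly] at h1
    simpa using h1

end Cfsg.Agent.Lib.Helper25.OHyp
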