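import Mathlib
import Cfsg.Agent.Lib.Helper59.OHyp.BlkDefs

/-!
# Project OHYP (S5992), BLK cut, package [FROB]

For `i = ord_r(q)` even, the adjoint of `g(x)` with respect to the polar form is
`g(x) ^ (q ^ (i / 2))`.
-/

set_option autoImplicit false

namespace Cfsg.Agent.Lib.Helper25.OHyp

open Cfsg.Agent.Lib.Helper23.OHyp Cfsg.Agent.Lib.Helper59.OHyp
open scoped Matrix

universe u

theorem expand_card_pow {F : Type u} [Field F] [Fintype F] (g : Polynomial F) (j : ℕ) :
    Polynomial.expand F (Fintype.card F ^ j) g = g ^ (Fintype.card F ^ j) := by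
  induction j with
  | zero => simp
  | succ j ih =>
    rw [pow_succ, Polynomial.expand_mul, FiniteField.expand_card, map_pow, ih, ← pow_mul]

theorem pkgFrob : PkgFrob.{u} := by
  intro F _ _ ι _ _ Q r x hS hev g u v
  haveI : Fact r.Prime := ⟨hS.prime⟩
  obtain ⟨j, hj⟩ := hev
  have hq0 : ((Fintype.card F : ℕ) : ZMod r) ≠ 0 := by
    intro h
    exact hS.ndvd ((ZMod.natCast_eq_zero_iff _ _).mp h)
  have hfin : IsOfFinOrder ((Fintype.card F : ℕ) : ZMod r) := by
    rw [isOfFinOrder_iff_pow_eq_one]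
    exact ⟨r - 1, Nat.sub_pos_of_lt hS.prime.one_lt, ZMod.pow_card_sub_one_eq_one hq0⟩
  have hipos : 0 < ordI (Fintype.card F) r := orderOf_pos_iff.mpr hfin
  have hj1 : 1 ≤ j := by omega
  have hsq : (((Fintype.card F : ℕ) : ZMod r) ^ j) ^ 2 = 1 := by
    rw [← pow_mul]
    have : j * 2 = ordI (Fintype.card F) r := by omega
    rw [this]
    exact pow_orderOf_eq_one _
  have hne1 : ((Fintype.card F : ℕ) : ZMod r) ^ j ≠ 1 := by
    intro h
    have h1 : ordI (Fintype.card F) r ∣ j := orderOf_dvd_of_pow_eq_one h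
    have h2 := Nat.le_of_dvd (by omega) h1
    omega
  have hneg : ((Fintype.card F : ℕ) : ZMod r) ^ j = -1 := by
    rcases sq_eq_one_iff.mp hsq with h | h
    · exact absurd h hne1
    · exact h
  have hdvd : r ∣ Fintype.card F ^ j + 1 := by
    rw [← ZMod.natCast_eq_zero_iff]
    push_cast
    rw [hneg]
    ring
  have hx1 : x * x ^ (Fintype.card F ^ j) = 1 := by
    obtain ⟨k, hk⟩ := hdvd
    rw [← pow_succ', hk, pow_mul, hS.pow, one_pow]
  have hiso : ∀ a b : ι → F, QuadraticMap.polar Q (x *ᵥ a) (x *ᵥ b) = QuadraticMap.polar Q a b := by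
    intro a b
    unfold QuadraticMap.polar
    rw [← Matrix.mulVec_add, hS.isom, hS.isom, hS.isom]
  have step1 : ∀ a b : ι → F, QuadraticMap.polar Q (x *ᵥ a) b =
      QuadraticMap.polar Q a (x ^ (Fintype.card F ^ j) *ᵥ b) := by
    intro a b
    have hb : b = x *ᵥ (x ^ (Fintype.card F ^ j) *ᵥ b) := by
      rw [Matrix.mulVec_mulVec, hx1, Matrix.one_mulVec]
    calc QuadraticMap.polar Q (x *ᵥ a) b
        = QuadraticMap.polar Q (x *ᵥ a) (x *ᵥ (x ^ (Fintype.card F ^ j) *ᵥ b)) := by rw [← hb]
      _ = QuadraticMap.polar Q a (x ^ (Fintype.card F ^ j) *ᵥ b) := hiso _ _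
  have step2 : ∀ (k : ℕ) (a b : ι → F), QuadraticMap.polar Q (x ^ k *ᵥ a) b =
      QuadraticMap.polar Q a ((x ^ (Fintype.card F ^ j)) ^ k *ᵥ b) := by
    intro k
    induction k with
    | zero => intro a b; simp
    | succ k ih =>
      intro a b
      rw [pow_succ' x k, ← Matrix.mulVec_mulVec, step1, ih, Matrix.mulVec_mulVec, ← pow_succ]
  have hbil := hS.nondeg.polar_bilinear
  have step3 : ∀ (g : Polynomial F) (a b : ι → F),
      QuadraticMap.polar Q ((Polynomial.aeval x g) *ᵥ a) b =
        QuadraticMap.polar Q a ((Polynomial.aeval (x ^ (Fintype.card F ^ j)) g) *ᵥ b) := by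
    intro g
    induction g using Polynomial.induction_on' with
    | add p q hp hq =>
      intro a b
      rw [map_add, map_add, Matrix.add_mulVec, Matrix.add_mulVec, hbil.add_left, hbil.add_right,
        hp, hq]
    | monomial n c =>
      intro a b
      rw [Polynomial.aeval_monomial, Polynomial.aeval_monomial, ← Algebra.smul_def,
        ← Algebra.smul_def, Matrix.smul_mulVec, Matrix.smul_mulVec, hbil.smul_left,
        hbil.smul_right, step2]
  have hexp : Polynomial.aeval (x ^ (Fintype.card F ^ j)) g =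
      (Polynomial.aeval x g) ^ (Fintype.card F ^ j) := by
    rw [← Polynomial.expand_aeval, expand_card_pow, map_pow]
  have hhalf : ordI (Fintype.card F) r / 2 = j := by omega
  rw [hhalf, ← hexp]
  exact step3 g u v

end Cfsg.Agent.Lib.Helper25.OHyp
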